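import Cfsg.Agent.LargeExtra.W2.U43.ExistsD

/-!
# The Sylow 2-subgroup of `U₄(3)` in the Boolean model (helper4)

`T₀ = {ev t | P0 t}`, `A₁ = ⟨z, i k, j l, s⟩ = {ev t | K1 t}`, `A₂ = ⟨z, i l, j k, y s⟩ = {ev t | K2 t}`:
the elementary abelian subgroups of order 16 of `T₀` are `A₁`, `A₂`, and they are self-centralizing.
-/

set_option autoImplicit false

namespace Cfsg.Agent.H4.U43

open Cfsg.Agent.LargeExtra.W2.CM Cfsg.Agent.LargeExtra.W2.U43 Cfsg.Agent.LargeExtra.W2.U43.ExistsD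

/-- elements of the Sylow subgroup -/
def P0 (t : T) : Bool := C3.eqb t.m C3.o && C3.eqb t.n C3.o

/-- elements of `A₁` -/
def K1 (t : T) : Bool := P0 t && ((t.w.a == t.w.c) && ((t.w.b == t.w.d) && !t.e))

/-- elements of `A₂` -/
def K2 (t : T) : Bool := P0 t && ((t.w.a == t.w.d) && ((t.w.b == t.w.c) && (t.e == t.f)))

theorem P0.eq {t : T} (h : P0 t = true) : t = ⟨t.w, C3.o, C3.o, t.e, t.f⟩ := by
  obtain ⟨w, m, n, e, f⟩ := t
  simp only [P0, Bool.and_eq_true] at h
  rw [C3.eq_of_eqb _ _ h.1, C3.eq_of_eqb _ _ h.2]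

theorem K1.eq {t : T} (h : K1 t = true) : t = ⟨⟨t.w.s, t.w.a, t.w.b, t.w.a, t.w.b⟩, C3.o, C3.o, false, t.f⟩ := by
  obtain ⟨⟨s, a, b, c, d⟩, m, n, e, f⟩ := t
  simp only [K1, P0, Bool.and_eq_true, beq_iff_eq, Bool.not_eq_true'] at h
  obtain ⟨⟨h1, h2⟩, h3, h4, h5⟩ := h
  subst h3 h4 h5
  rw [C3.eq_of_eqb _ _ h1, C3.eq_of_eqb _ _ h2]

theorem K2.eq {t : T} (h : K2 t = true) : t = ⟨⟨t.w.s, t.w.a, t.w.b, t.w.b, t.w.a⟩, C3.o, C3.o, t.f, t.f⟩ := by
  obtain ⟨⟨s, a, b, c, d⟩, m, n, e, f⟩ := t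
  simp only [K2, P0, Bool.and_eq_true, beq_iff_eq] at h
  obtain ⟨⟨h1, h2⟩, h3, h4, h5⟩ := h
  subst h3 h4 h5
  rw [C3.eq_of_eqb _ _ h1, C3.eq_of_eqb _ _ h2]

/-- quantification over the Sylow subgroup -/
def allP (P : T → Bool) : Bool :=
  allB fun s => allB fun a => allB fun b => allB fun c => allB fun d => allB fun e => allB fun f =>
    P ⟨⟨s, a, b, c, d⟩, C3.o, C3.o, e, f⟩

theorem allP_spec {P : T → Bool} (h : allP P = true) {t : T} (ht : P0 t = true) : P t = true := by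
  rw [P0.eq ht]
  obtain ⟨⟨s, a, b, c, d⟩, m, n, e, f⟩ := t
  exact allB_spec (allB_spec (allB_spec (allB_spec (allB_spec (allB_spec (allB_spec h s) a) b) c) d) e) f

/-- `T₀` is closed under multiplication -/
theorem P0.mul {t u : T} (ht : P0 t = true) (hu : P0 u = true) : P0 (mu t u) = true := by
  rw [P0.eq ht, P0.eq hu]
  obtain ⟨⟨s, a, b, c, d⟩, m, n, e, f⟩ := t
  obtain ⟨⟨s', a', b', c', d'⟩, m', n', e', f'⟩ := u
  cases e <;> cases f <;> rfl

/-- involutions of `T₀` outside `Q` -/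
theorem fD1 : allP (fun t => !(T.beq (mu t t) T.one) || ((!t.e && !t.f) || ((K1 t && t.f) || (K2 t && t.e)))) = true := by
  decide +kernel

theorem D1 {t : T} (ht : P0 t = true) (h2 : mu t t = T.one) : (t.e = false ∧ t.f = false) ∨
    (K1 t = true ∧ t.f = true) ∨ (K2 t = true ∧ t.e = true) := by
  have h := allP_spec fD1 ht
  simp only [Bool.or_eq_true, Bool.not_eq_true', Bool.and_eq_true] at h
  rcases h with h | h | h | h
  · rw [← Bool.not_eq_true, T.beq_iff] at h
    exact absurd h2 h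
  · exact Or.inl h
  · exact Or.inr (Or.inl h)
  · exact Or.inr (Or.inr h)

theorem fD2 : (allB fun s => allB fun a => allB fun b => allP fun t =>
    !(T.beq (mu t t) T.one) || (!(T.beq (mu t ⟨⟨s, a, b, a, b⟩, C3.o, C3.o, false, true⟩)
      (mu ⟨⟨s, a, b, a, b⟩, C3.o, C3.o, false, true⟩ t)) || K1 t)) = true := by
  decide +kernel

theorem D2 {t u : T} (hu : K1 u = true) (huf : u.f = true) (ht : P0 t = true) (h2 : mu t t = T.one)
    (hc : mu t u = mu u t) : K1 t = true := by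
  rw [K1.eq hu, huf] at hc
  have h := allP_spec (allB_spec (allB_spec (allB_spec fD2 u.w.s) u.w.a) u.w.b) ht
  simp only [Bool.or_eq_true, Bool.not_eq_true'] at h
  rcases h with h | h | h
  · rw [← Bool.not_eq_true, T.beq_iff] at h
    exact absurd h2 h
  · rw [← Bool.not_eq_true, T.beq_iff] at h
    exact absurd hc h
  · exact h

theorem fD2' : (allB fun s => allB fun a => allB fun b => allP fun t =>
    !(T.beq (mu t t) T.one) || (!(T.beq (mu t ⟨⟨s, a, b, b, a⟩, C3.o, C3.o, true, true⟩)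
      (mu ⟨⟨s, a, b, b, a⟩, C3.o, C3.o, true, true⟩ t)) || K2 t)) = true := by
  decide +kernel

theorem D2' {t u : T} (hu : K2 u = true) (hue : u.e = true) (ht : P0 t = true) (h2 : mu t t = T.one)
    (hc : mu t u = mu u t) : K2 t = true := by
  have huf : u.f = true := by
    have h1 := congrArg T.e (K2.eq hu)
    have h3 : u.e = u.f := h1
    rw [← h3, hue]
  rw [K2.eq hu, huf] at hc
  have h := allP_spec (allB_spec (allB_spec (allB_spec fD2' u.w.s) u.w.a) u.w.b) ht
  simp only [Bool.or_eq_true, Bool.not_eq_true'] at h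
  rcases h with h | h | h
  · rw [← Bool.not_eq_true, T.beq_iff] at h
    exact absurd h2 h
  · rw [← Bool.not_eq_true, T.beq_iff] at h
    exact absurd hc h
  · exact h

/-- commuting elements of square one of `Q` with the same exponents `s, a, b` -/
theorem fD3 : (allB fun s => allB fun a => allB fun b => allB fun c => allB fun d => allB fun c' => allB fun d' =>
    !(T.beq (mu ⟨⟨s, a, b, c, d⟩, C3.o, C3.o, false, false⟩ ⟨⟨s, a, b, c, d⟩, C3.o, C3.o, false, false⟩) T.one) ||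
    (!(T.beq (mu ⟨⟨s, a, b, c', d'⟩, C3.o, C3.o, false, false⟩ ⟨⟨s, a, b, c', d'⟩, C3.o, C3.o, false, false⟩)
      T.one) ||
    (!(T.beq (mu ⟨⟨s, a, b, c, d⟩, C3.o, C3.o, false, false⟩ ⟨⟨s, a, b, c', d'⟩, C3.o, C3.o, false, false⟩)
      (mu ⟨⟨s, a, b, c', d'⟩, C3.o, C3.o, false, false⟩ ⟨⟨s, a, b, c, d⟩, C3.o, C3.o, false, false⟩)) ||
    ((c == c') && (d == d'))))) = true := by
  decide +kernel

theorem D3 {t u : T} (ht : P0 t = true) (hu : P0 u = true) (hte : t.e = false) (htf : t.f = false)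
    (hue : u.e = false) (huf : u.f = false) (ht2 : mu t t = T.one) (hu2 : mu u u = T.one)
    (hc : mu t u = mu u t) (h1 : t.w.s = u.w.s) (h2 : t.w.a = u.w.a) (h3 : t.w.b = u.w.b) : t = u := by
  obtain ⟨⟨s, a, b, c, d⟩, m, n, e, f⟩ := t
  obtain ⟨⟨s', a', b', c', d'⟩, m', n', e', f'⟩ := u
  simp only [P0, Bool.and_eq_true] at ht hu
  have e1 := C3.eq_of_eqb _ _ ht.1
  have e2 := C3.eq_of_eqb _ _ ht.2
  have e3 := C3.eq_of_eqb _ _ hu.1
  have e4 := C3.eq_of_eqb _ _ hu.2
  subst e1 e2 e3 e4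
  dsimp only at hte htf hue huf h1 h2 h3
  subst hte htf hue huf h1 h2 h3
  have h := allB_spec (allB_spec (allB_spec (allB_spec (allB_spec (allB_spec (allB_spec fD3 s) a) b) c) d) c') d'
  simp only [Bool.or_eq_true, Bool.not_eq_true', Bool.and_eq_true, beq_iff_eq] at h
  rcases h with h | h | h | h
  · rw [← Bool.not_eq_true, T.beq_iff] at h
    exact absurd ht2 h
  · rw [← Bool.not_eq_true, T.beq_iff] at h
    exact absurd hu2 h
  · rw [← Bool.not_eq_true, T.beq_iff] at h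
    exact absurd hc h
  · obtain ⟨rfl, rfl⟩ := h
    rfl

/-- `A₁` is self-centralizing -/
theorem fE1 : allT (fun t => !(T.beq (mu t tik) (mu tik t)) || (!(T.beq (mu t tjl) (mu tjl t)) ||
    (!(T.beq (mu t ts) (mu ts t)) || K1 t))) = true := by decide +kernel

theorem E1 {t : T} (h1 : mu t tik = mu tik t) (h2 : mu t tjl = mu tjl t) (h3 : mu t ts = mu ts t) : K1 t = true := by
  have h := allT_spec fE1 t
  simp only [Bool.or_eq_true, Bool.not_eq_true'] at h
  rcases h with h | h | h | h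
  · rw [← Bool.not_eq_true, T.beq_iff] at h
    exact absurd h1 h
  · rw [← Bool.not_eq_true, T.beq_iff] at h
    exact absurd h2 h
  · rw [← Bool.not_eq_true, T.beq_iff] at h
    exact absurd h3 h
  · exact h

/-- `A₂` is self-centralizing -/
theorem fE2 : allT (fun t => !(T.beq (mu t (mu ti tl)) (mu (mu ti tl) t)) ||
    (!(T.beq (mu t (mu tj tk)) (mu (mu tj tk) t)) ||
    (!(T.beq (mu t (mu ty ts)) (mu (mu ty ts) t)) || K2 t))) = true := by decide +kernel

theorem E2 {t : T} (h1 : mu t (mu ti tl) = mu (mu ti tl) t) (h2 : mu t (mu tj tk) = mu (mu tj tk) t)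
    (h3 : mu t (mu ty ts) = mu (mu ty ts) t) : K2 t = true := by
  have h := allT_spec fE2 t
  simp only [Bool.or_eq_true, Bool.not_eq_true'] at h
  rcases h with h | h | h | h
  · rw [← Bool.not_eq_true, T.beq_iff] at h
    exact absurd h1 h
  · rw [← Bool.not_eq_true, T.beq_iff] at h
    exact absurd h2 h
  · rw [← Bool.not_eq_true, T.beq_iff] at h
    exact absurd h3 h
  · exact h

/-- `[ρ, ij]` is not in `A₁` -/
theorem fR : allT (fun t => !(K1 t) || !(T.beq (mu tr (mu ti tj)) (mu (mu t (mu ti tj)) tr))) = true := by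
  decide +kernel

theorem R1 {t : T} (ht : K1 t = true) : mu tr (mu ti tj) ≠ mu (mu t (mu ti tj)) tr := by
  have h := allT_spec fR t
  simp only [Bool.or_eq_true, Bool.not_eq_true'] at h
  rcases h with h | h
  · rw [ht] at h; exact absurd h (by decide)
  · rw [← Bool.not_eq_true, T.beq_iff] at h
    exact h

end Cfsg.Agent.H4.U43
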